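import Mathlib
import Cfsg.Agent.Lib.Helper93.ZStarP

set_option autoImplicit false

namespace Cfsg.Agent.Lib.Helper93

open Subgroup

variable {G : Type*} [Group G]

/-- conditional form of S1618. -/
theorem commutator_nilpotent_of_zstar [Finite G]
    (hZ : ∀ (P : Sylow 2 G) (u : G), orderOf u = 2 → u ∈ P →
      (∀ g : G, g * u * g⁻¹ ∈ P → g * u * g⁻¹ = u) →
      ∃ N : Subgroup G, N.Normal ∧ Odd (Nat.card N) ∧ ∀ g : G, (u * g * u⁻¹ * g⁻¹) ∈ N)
    (p : ℕ) (hp : p.Prime) (hodd : p ≠ 2) {D : Set G} (hinv : ∀ d ∈ D, orderOf d = 2)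
    (hconj : ∃ d ∈ D, D = conjugatesOf d) (hgen : Subgroup.closure D = ⊤)
    (hprod : ∀ x ∈ D, ∀ y ∈ D, x ≠ y → ∃ k : ℕ, orderOf (x * y) = p ^ k) :
    Group.IsNilpotent ↥(commutator G) := by
  classical
  have : Fact p.Prime := ⟨hp⟩
  obtain ⟨d, hdD, hD⟩ := hconj
  have hd : orderOf d = 2 := hinv d hdD
  have hsq : ∀ a ∈ D, a * a = 1 := by
    intro a ha
    have := pow_orderOf_eq_one a
    rwa [hinv a ha, pow_two] at this
  have hprod' : ∀ a ∈ conjugatesOf d, ∀ b ∈ conjugatesOf d, ∃ k : ℕ, orderOf (a * b) = p ^ k := by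
    intro a ha b hb
    rw [← hD] at ha hb
    by_cases hab : a = b
    · refine ⟨0, ?_⟩
      rw [← hab, hsq a ha, orderOf_one, pow_zero]
    · exact hprod a ha b hb hab
  have key := mul_mem_pCore_of_zstar hZ hp hodd d hd hprod'
  obtain ⟨hOn, hOp⟩ := Cfsg.Agent.Lib.Helper80.pCore_spec (G := G) p
  set O := Cfsg.pCore p G with hO
  have hmem : ∀ g : G, ∃ k : ℤ, (QuotientGroup.mk g : G ⧸ O) = (QuotientGroup.mk d : G ⧸ O) ^ k := by
    intro g
    have hg : g ∈ Subgroup.closure D := by rw [hgen]; exact Subgroup.mem_top g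
    induction hg using Subgroup.closure_induction with
    | mem a ha =>
      refine ⟨1, ?_⟩
      rw [zpow_one, QuotientGroup.eq]
      have h1 : a * d ∈ O := key a (hD ▸ ha) d (hD ▸ hdD)
      have h2 : a⁻¹ = a := inv_eq_of_mul_eq_one_left (hsq a ha)
      rwa [h2]
    | one => exact ⟨0, by simp⟩
    | mul x y _ _ hx hy =>
      obtain ⟨k, hk⟩ := hx
      obtain ⟨l, hl⟩ := hy
      exact ⟨k + l, by rw [QuotientGroup.mk_mul, hk, hl, zpow_add]⟩
    | inv x _ hx =>
      obtain ⟨k, hk⟩ := hx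
      exact ⟨-k, by rw [QuotientGroup.mk_inv, hk, zpow_neg]⟩
  have hle : commutator G ≤ O := by
    rw [commutator_def, Subgroup.commutator_le]
    intro g _ h _
    rw [commutatorElement_def, ← QuotientGroup.eq_one_iff]
    obtain ⟨k, hk⟩ := hmem g
    obtain ⟨l, hl⟩ := hmem h
    rw [QuotientGroup.mk_mul, QuotientGroup.mk_mul, QuotientGroup.mk_mul, QuotientGroup.mk_inv,
      QuotientGroup.mk_inv, hk, hl, ← zpow_add, ← zpow_neg, ← zpow_neg, ← zpow_add, ← zpow_add]
    have : k + l + -k + -l = 0 := by ring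
    rw [this, zpow_zero]
  have hp' : IsPGroup p (commutator G) := hOp.to_le hle
  exact hp'.isNilpotent

end Cfsg.Agent.Lib.Helper93
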